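import Cfsg.Agent.Lib.TC.D.ONH.Ok
import Cfsg.Agent.Lib.TC.D.ONChain.S1
import Cfsg.Agent.Lib.TC.D.ONChain.S2
import Cfsg.Agent.Lib.TC.D.ONChain.S3
import Cfsg.Agent.Lib.TC.D.ONChain.S4
import Cfsg.Agent.Lib.TC.D.ONChain.S5
import Cfsg.Agent.Lib.TC.D.ONChain.S6

namespace Cfsg.Agent.Lib.TC.D.ONH.Bound

open Cfsg.Agent.Lib.TC.Core Cfsg.Agent.Lib.TC.Enc Cfsg.Agent.Lib.TC.Pres Cfsg.Agent.Lib.TC.Perm Cfsg.Agent.Lib.TC.Main Cfsg.Agent.Lib.TC.Chain Cfsg.Agent.Lib.TC.SubPres Cfsg.Agent.Lib.TC.Iso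

set_option maxRecDepth 100000

open Cfsg.Agent.Lib.TC.D.ONH.Ok

/-- A letter of the parent group in the presented group. -/
noncomputable def E' (c : Nat) : PresentedGroup Rp := Kp.E Rp (Cfsg.Agent.Lib.TC.D.ONChain.S1_Tab.ls.idxOf c)

/-- The relators in the letters of the parent group. -/
def rels0 : List (List Nat) := Cfsg.Agent.Lib.TC.D.ONChain.S1_Tab.rels'.map fun l => l.map fun z => Cfsg.Agent.Lib.TC.D.ONChain.S1_Tab.ls.getD z 0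

theorem E'_ls : ∀ c, c < 6 → E' (Cfsg.Agent.Lib.TC.D.ONChain.S1_Tab.ls.getD c 0) = Kp.E Rp c := by
  intro c hc
  have h : Cfsg.Agent.Lib.TC.D.ONChain.S1_Tab.ls.idxOf (Cfsg.Agent.Lib.TC.D.ONChain.S1_Tab.ls.getD c 0) = c := by
    revert c
    decide +kernel
  rw [E', h]

theorem word_E' (m : List Nat) (hm : ∀ z ∈ m, z < 6) :
    prodA E' (m.map fun z => Cfsg.Agent.Lib.TC.D.ONChain.S1_Tab.ls.getD z 0) = prodA (Kp.E Rp) m := by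
  induction m with
  | nil => rfl
  | cons a m ih =>
    simp only [List.map_cons, prodA_cons]
    rw [ih (fun y hy => hm y (by simp [hy])), E'_ls a (hm a (by simp))]

theorem hrel0 : ∀ l ∈ rels0, prodA E' l = 1 := by
  intro l hl
  obtain ⟨m, hm, rfl⟩ := List.mem_map.1 hl
  rw [word_E' m (hk m hm)]
  exact rel_prodA_one hv hrelsp m hm

theorem hinv0 : ∀ c ∈ Cfsg.Agent.Lib.TC.D.ONChain.S1_Tab.ls, E' (Cfsg.Agent.Lib.TC.G.ON.K.inv c) = (E' c)⁻¹ := by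
  intro c hc
  have h1 : Cfsg.Agent.Lib.TC.G.ON.K.inv c = c := by
    revert c
    decide +kernel
  rw [h1]
  obtain ⟨j, hj, rfl⟩ := List.getElem_of_mem hc
  have hj' : j < 6 := hj
  have h2 := (Cols.E_inv hv j hj').2
  have h3 : Kp.inv j = j := rfl
  rw [h3] at h2
  rw [← List.getD_eq_getElem _ 0 hj, E'_ls j hj']
  exact h2

theorem top : Lt E' Cfsg.Agent.Lib.TC.D.ONChain.S1_Tab.ls = ⊤ := by
  rw [eq_top_iff, ← Cols.closure_E hv]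
  apply Subgroup.closure_mono
  rintro _ ⟨c, hc, rfl⟩
  have hc' : c < 6 := hc
  refine ⟨Cfsg.Agent.Lib.TC.D.ONChain.S1_Tab.ls.getD c 0, ?_, E'_ls c hc'⟩
  rw [List.getD_eq_getElem _ 0 (by change c < 6; exact hc')]
  exact List.getElem_mem _

theorem bound : Nat.card (PresentedGroup Rp) ≠ 0 ∧ Nat.card (PresentedGroup Rp) ≤ 3753792 := by
  have b0 := bound_nil E'
  have h0 : Lt E' Cfsg.Agent.Lib.TC.D.ONChain.S6_Tab.ls' = Lt E' [] := rfl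
  rw [← h0] at b0
  have s0 := stage_spec E' Cfsg.Agent.Lib.TC.G.ON.K.inv rels0 Cfsg.Agent.Lib.TC.D.ONChain.S6_Tab.ls Cfsg.Agent.Lib.TC.D.ONChain.S6_Tab.ls' Cfsg.Agent.Lib.TC.D.ONChain.S6_Tab.inv' Cfsg.Agent.Lib.TC.D.ONChain.S6_Tab.rels' Cfsg.Agent.Lib.TC.D.ONChain.S6_Tab.subs' Cfsg.Agent.Lib.TC.D.ONChain.S6_Tab.witT.get Cfsg.Agent.Lib.TC.D.ONChain.S6_Tab.cert
    (fun c hc => hinv0 c (by revert c; decide +kernel)) hrel0 (by decide) (by decide +kernel)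
    (by decide +kernel) (by decide +kernel) Cfsg.Agent.Lib.TC.D.ONChain.S6.hchecked
  rw [Cfsg.Agent.Lib.TC.D.ONChain.S6.hcount] at s0
  have b1 := bound_up s0 b0
  have s1 := stage_spec E' Cfsg.Agent.Lib.TC.G.ON.K.inv rels0 Cfsg.Agent.Lib.TC.D.ONChain.S5_Tab.ls Cfsg.Agent.Lib.TC.D.ONChain.S5_Tab.ls' Cfsg.Agent.Lib.TC.D.ONChain.S5_Tab.inv' Cfsg.Agent.Lib.TC.D.ONChain.S5_Tab.rels' Cfsg.Agent.Lib.TC.D.ONChain.S5_Tab.subs' Cfsg.Agent.Lib.TC.D.ONChain.S5_Tab.witT.get Cfsg.Agent.Lib.TC.D.ONChain.S5_Tab.cert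
    (fun c hc => hinv0 c (by revert c; decide +kernel)) hrel0 (by decide) (by decide +kernel)
    (by decide +kernel) (by decide +kernel) Cfsg.Agent.Lib.TC.D.ONChain.S5.hchecked
  rw [Cfsg.Agent.Lib.TC.D.ONChain.S5.hcount] at s1
  have b2 := bound_up s1 b1
  have s2 := stage_spec E' Cfsg.Agent.Lib.TC.G.ON.K.inv rels0 Cfsg.Agent.Lib.TC.D.ONChain.S4_Tab.ls Cfsg.Agent.Lib.TC.D.ONChain.S4_Tab.ls' Cfsg.Agent.Lib.TC.D.ONChain.S4_Tab.inv' Cfsg.Agent.Lib.TC.D.ONChain.S4_Tab.rels' Cfsg.Agent.Lib.TC.D.ONChain.S4_Tab.subs' Cfsg.Agent.Lib.TC.D.ONChain.S4_Tab.witT.get Cfsg.Agent.Lib.TC.D.ONChain.S4_Tab.cert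
    (fun c hc => hinv0 c (by revert c; decide +kernel)) hrel0 (by decide) (by decide +kernel)
    (by decide +kernel) (by decide +kernel) Cfsg.Agent.Lib.TC.D.ONChain.S4.hchecked
  rw [Cfsg.Agent.Lib.TC.D.ONChain.S4.hcount] at s2
  have b3 := bound_up s2 b2
  have s3 := stage_spec E' Cfsg.Agent.Lib.TC.G.ON.K.inv rels0 Cfsg.Agent.Lib.TC.D.ONChain.S3_Tab.ls Cfsg.Agent.Lib.TC.D.ONChain.S3_Tab.ls' Cfsg.Agent.Lib.TC.D.ONChain.S3_Tab.inv' Cfsg.Agent.Lib.TC.D.ONChain.S3_Tab.rels' Cfsg.Agent.Lib.TC.D.ONChain.S3_Tab.subs' Cfsg.Agent.Lib.TC.D.ONChain.S3_Tab.witT.get Cfsg.Agent.Lib.TC.D.ONChain.S3_Tab.cert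
    (fun c hc => hinv0 c (by revert c; decide +kernel)) hrel0 (by decide) (by decide +kernel)
    (by decide +kernel) (by decide +kernel) Cfsg.Agent.Lib.TC.D.ONChain.S3.hchecked
  rw [Cfsg.Agent.Lib.TC.D.ONChain.S3.hcount] at s3
  have b4 := bound_up s3 b3
  have s4 := stage_spec E' Cfsg.Agent.Lib.TC.G.ON.K.inv rels0 Cfsg.Agent.Lib.TC.D.ONChain.S2_Tab.ls Cfsg.Agent.Lib.TC.D.ONChain.S2_Tab.ls' Cfsg.Agent.Lib.TC.D.ONChain.S2_Tab.inv' Cfsg.Agent.Lib.TC.D.ONChain.S2_Tab.rels' Cfsg.Agent.Lib.TC.D.ONChain.S2_Tab.subs' Cfsg.Agent.Lib.TC.D.ONChain.S2_Tab.witT.get Cfsg.Agent.Lib.TC.D.ONChain.S2_Tab.cert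
    (fun c hc => hinv0 c (by revert c; decide +kernel)) hrel0 (by decide) (by decide +kernel)
    (by decide +kernel) (by decide +kernel) Cfsg.Agent.Lib.TC.D.ONChain.S2.hchecked
  rw [Cfsg.Agent.Lib.TC.D.ONChain.S2.hcount] at s4
  have b5 := bound_up s4 b4
  have s5 := stage_spec E' Cfsg.Agent.Lib.TC.G.ON.K.inv rels0 Cfsg.Agent.Lib.TC.D.ONChain.S1_Tab.ls Cfsg.Agent.Lib.TC.D.ONChain.S1_Tab.ls' Cfsg.Agent.Lib.TC.D.ONChain.S1_Tab.inv' Cfsg.Agent.Lib.TC.D.ONChain.S1_Tab.rels' Cfsg.Agent.Lib.TC.D.ONChain.S1_Tab.subs' Cfsg.Agent.Lib.TC.D.ONChain.S1_Tab.witT.get Cfsg.Agent.Lib.TC.D.ONChain.S1_Tab.cert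
    (fun c hc => hinv0 c (by revert c; decide +kernel)) hrel0 (by decide) (by decide +kernel)
    (by decide +kernel) (by decide +kernel) Cfsg.Agent.Lib.TC.D.ONChain.S1.hchecked
  rw [Cfsg.Agent.Lib.TC.D.ONChain.S1.hcount] at s5
  have b6 := bound_up s5 b5
  rw [top, Subgroup.card_top] at b6
  exact b6

end Cfsg.Agent.Lib.TC.D.ONH.Bound
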