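import Cfsg.Agent.Lib.TC.D.ONH.Bound
import Cfsg.Agent.Lib.TC.D.ONa.Ok
import Cfsg.Agent.Lib.TC.D.ONChain.Main
import Cfsg.Agent.Lib.TC.Semi

namespace Cfsg.Agent.Lib.TC.D.ONH.Iso

open Cfsg.Agent.Lib.TC.Core Cfsg.Agent.Lib.TC.Enc Cfsg.Agent.Lib.TC.Pres Cfsg.Agent.Lib.TC.Perm Cfsg.Agent.Lib.TC.Main Cfsg.Agent.Lib.TC.Chain Cfsg.Agent.Lib.TC.SubPres Cfsg.Agent.Lib.TC.Iso

set_option maxRecDepth 100000

open Cfsg.Agent.Lib.TC.D.ONH.Ok Cfsg.Agent.Lib.TC.G.ON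

theorem hsubsB : Cfsg.Agent.Lib.TC.D.ONa.Tab.subs = Cfsg.Agent.Lib.TC.D.ONChain.S1_Tab.ls.map fun c => [c] := by decide +kernel

theorem hindex : (Lt (K.E Rel) Cfsg.Agent.Lib.TC.D.ONChain.S1_Tab.ls).index = 122760 := by
  have h3 := Cfsg.Agent.Lib.TC.D.ONa.Ok.ok.index_eq
  rw [hsubsB, subOf_singletons] at h3
  exact h3

theorem hcardH : Nat.card (Lt (K.E Rel) Cfsg.Agent.Lib.TC.D.ONChain.S1_Tab.ls) = 3753792 := by
  have h1 := Subgroup.card_mul_index (Lt (K.E Rel) Cfsg.Agent.Lib.TC.D.ONChain.S1_Tab.ls)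
  rw [hindex] at h1
  have h2 := Cfsg.Agent.Lib.TC.D.ONChain.Main.simple_card.2
  exact Nat.eq_of_mul_eq_mul_right (by norm_num : 0 < 122760) ((h1.trans h2).trans (by norm_num))

theorem hrelP : ∀ l ∈ Cfsg.Agent.Lib.TC.D.ONChain.S1_Tab.rels', prodA (K.E Rel) (l.map fun z => Cfsg.Agent.Lib.TC.D.ONChain.S1_Tab.ls.getD z 0) = 1 := by
  have h : Cfsg.Agent.Lib.TC.D.ONChain.S1_Tab.rels'.all (fun l => rels.contains (l.map fun z => Cfsg.Agent.Lib.TC.D.ONChain.S1_Tab.ls.getD z 0)) = true := by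
    decide +kernel
  intro l hl
  exact rel_prodA_one valid hrels _ (List.contains_iff_mem.1 (List.all_eq_true.1 h l hl))

theorem exists_iso : ∃ e : PresentedGroup Rp ≃* Lt (K.E Rel) Cfsg.Agent.Lib.TC.D.ONChain.S1_Tab.ls,
    ∀ c, c < 6 → e (Kp.E Rp c) = stageE (K.E Rel) Cfsg.Agent.Lib.TC.D.ONChain.S1_Tab.ls c :=
  exists_equiv_of_bound 6 _ (K.E Rel) Cfsg.Agent.Lib.TC.D.ONChain.S1_Tab.ls (by decide) hsq hk hrelP 3753792 (by norm_num)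
    Cfsg.Agent.Lib.TC.D.ONH.Bound.bound hcardH

end Cfsg.Agent.Lib.TC.D.ONH.Iso
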