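import Cfsg.Agent.Lib.TC.D.ONChain.S1_Tab
import Cfsg.Agent.Lib.TC.SubPres

namespace Cfsg.Agent.Lib.TC.D.ONH.Ok

open Cfsg.Agent.Lib.TC.Core Cfsg.Agent.Lib.TC.Enc Cfsg.Agent.Lib.TC.Pres Cfsg.Agent.Lib.TC.Perm Cfsg.Agent.Lib.TC.Main Cfsg.Agent.Lib.TC.Chain Cfsg.Agent.Lib.TC.SubPres Cfsg.Agent.Lib.TC.Iso

set_option maxRecDepth 100000

open Cfsg.Agent.Lib.TC.D.ONChain.S1_Tab

/-- The columns. -/
abbrev Kp : Cols (Fin 6) := K 6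

/-- The relators. -/
abbrev Rp : Set (FreeGroup (Fin 6)) := R 6 rels'

theorem hk : ∀ l ∈ rels', ∀ z ∈ l, z < 6 := by decide +kernel

theorem hsq : ∀ c, c < 6 → [c, c] ∈ rels' := by decide +kernel

theorem hv : Kp.Valid (R := Rp) := valid 6 rels' hsq

theorem hrelsp : ∀ l ∈ rels', ∃ L, FreeGroup.mk L ∈ Rp ∧ l = Kp.word L := SubPres.hrels 6 rels' hk

end Cfsg.Agent.Lib.TC.D.ONH.Ok
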