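import Cfsg.Agent.Lib.TC.D.ONH.Iso
import Cfsg.Agent.Lib.Classical.OutPSL
import Cfsg.Agent.Lib.Classical.Transvections
import Cfsg.Agent.Lib.Classical.SLBasic

/-! The presented group on the letters `a, …, f` of the O'Nan group and `PSL₃(7) : 2`. -/

namespace Cfsg.Agent.Lib.TC.D.ONH.Tgt

open Cfsg.Agent.Lib.TC.Core Cfsg.Agent.Lib.TC.Pres Cfsg.Agent.Lib.TC.Main Cfsg.Agent.Lib.TC.Chain
  Cfsg.Agent.Lib.TC.Iso Cfsg.Agent.Lib.TC.D.ONH.Ok Cfsg.Agent.Lib.TC.D.ONChain.S1_Tab
  Cfsg.Agent.Lib.KS71.PSLCore Cfsg.Agent.Lib.Classical.OutPSL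
open scoped Matrix MatrixGroups

set_option maxRecDepth 100000

/-- The matrices. -/
abbrev M3 := Matrix (Fin 3) (Fin 3) (ZMod 7)

/-- The special linear group. -/
abbrev SL3 := Matrix.SpecialLinearGroup (Fin 3) (ZMod 7)

/-- The projective special linear group. -/
abbrev P3 := Matrix.ProjectiveSpecialLinearGroup (Fin 3) (ZMod 7)

/-- The group of order two. -/
abbrev C2 := Multiplicative (ZMod 2)

instance fact7 : Fact (Nat.Prime 7) := ⟨by norm_num⟩

/-- The action. -/
noncomputable def phi : C2 →* MulAut P3 := MonoidHom.mk' (tp (n := 3) (F := ZMod 7)) tp_mul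

/-- The semidirect product. -/
abbrev T := P3 ⋊[phi] C2

/-- The matrices of the letters. -/
def tblA : List (List (List (ZMod 7))) :=
  [[[1,0,0],[0,1,0],[0,0,1]],
   [[1,0,0],[0,2,0],[0,0,4]],
   [[1,2,2],[2,1,5],[2,5,1]],
   [[0,0,3],[0,3,0],[3,0,0]],
   [[0,1,0],[1,0,0],[0,0,6]],
   [[0,0,1],[0,6,0],[1,0,0]]]

/-- Their inverse transposes. -/
def tblB : List (List (List (ZMod 7))) :=
  [[[1,0,0],[0,1,0],[0,0,1]],
   [[1,0,0],[0,4,0],[0,0,2]],
   [[4,1,1],[1,4,6],[1,6,4]],
   [[0,0,5],[0,5,0],[5,0,0]],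
   [[0,1,0],[1,0,0],[0,0,6]],
   [[0,0,1],[0,6,0],[1,0,0]]]

/-- The words of the elementary transvections. -/
def tblW : List (List Nat) :=
  [[],
   [0,1,2,3,2,3,4,3,1,2,0,1,0,4,2,1,3,4,2,1,3,0,1,0,2,1,3,4,3,2,3,2,1,0],
   [4,5,1,2,3,4,2,3,0,1,2,0,1,0,4,2,1,3,4,2,1,3,0,1,0,2,1,0,3,2,4,3,2,1,5,4],
   [1,2,3,4,2,3,0,1,2,0,1,0,4,2,1,3,4,2,1,3,0,1,0,2,1,0,3,2,4,3,2,1],
   [],
   [3,0,1,2,3,4,2,3,0,1,2,0,1,0,4,2,1,3,4,2,1,3,0,1,0,2,1,0,3,2,4,3,2,1,0,3],
   [4,3,0,1,2,3,4,2,3,0,1,2,0,1,0,4,2,1,3,4,2,1,3,0,1,0,2,1,0,3,2,4,3,2,1,0,3,4],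
   [5,1,2,3,4,2,3,0,1,2,0,1,0,4,2,1,3,4,2,1,3,0,1,0,2,1,0,3,2,4,3,2,1,5],
   []]

/-- The matrix of a letter. -/
def A (c : Nat) : M3 := Matrix.of fun i j => ((tblA.getD c []).getD i.val []).getD j.val 0

/-- The inverse transpose of a letter. -/
def B (c : Nat) : M3 := Matrix.of fun i j => ((tblB.getD c []).getD i.val []).getD j.val 0

theorem hdet : ∀ c, c < 6 → (A c).det = 1 := by
  intro c hc
  rw [Matrix.det_fin_three]
  revert c
  decide +kernel

theorem hAB : ∀ c, c < 6 → A c * (B c)ᵀ = 1 := by decide +kernel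

/-- An element of the special linear group. -/
def mkS (X : M3) (h : X.det = 1) : SL3 := ⟨X, h⟩

/-- The letter in the special linear group. -/
def gS (c : Nat) : SL3 := if h : c < 6 then mkS (A c) (hdet c h) else 1

theorem gS_val {c : Nat} (h : c < 6) : (gS c : M3) = A c := by
  rw [gS, dif_pos h]
  rfl

theorem invTr_val {c : Nat} (h : c < 6) : ((invTrS (gS c) : SL3) : M3) = B c := by
  rw [coe_invTrS]
  have h1 : (((gS c)⁻¹ : SL3) : M3) * A c = 1 := by
    rw [← gS_val h, ← Matrix.SpecialLinearGroup.coe_mul, inv_mul_cancel]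
    rfl
  have h2 : (((gS c)⁻¹ : SL3) : M3) = (B c)ᵀ := by
    calc (((gS c)⁻¹ : SL3) : M3) = ((gS c)⁻¹ : SL3) * (A c * (B c)ᵀ) := by rw [hAB c h, mul_one]
      _ = (B c)ᵀ := by rw [← mul_assoc, h1, one_mul]
  rw [h2, Matrix.transpose_transpose]

/-- The letter in the semidirect product. -/
noncomputable def t (c : Nat) : T := ⟨mkP (gS c), Multiplicative.ofAdd 1⟩

/-- The parity. -/
def par (b : Bool) : C2 := if b then Multiplicative.ofAdd 1 else 1

/-- The product along a word, with its parity. -/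
def RW : List Nat → M3 × Bool
  | [] => (1, false)
  | z :: l => ((RW l).1 * (if (RW l).2 then B z else A z), !(RW l).2)

theorem prodA_t (l : List Nat) (hl : ∀ z ∈ l, z < 6) :
    ∃ s : SL3, (s : M3) = (RW l).1 ∧ prodA t l = ⟨mkP s, par (RW l).2⟩ := by
  induction l with
  | nil => exact ⟨1, rfl, rfl⟩
  | cons z l ih =>
    obtain ⟨s, hs, hp⟩ := ih (fun y hy => hl y (by simp [hy]))
    have hz : z < 6 := hl z (by simp)
    rw [prodA_cons, hp]
    cases hb : (RW l).2 with
    | false =>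
      refine ⟨s * gS z, ?_, ?_⟩
      · rw [Matrix.SpecialLinearGroup.coe_mul, hs, gS_val hz]
        simp [RW, hb]
      · apply SemidirectProduct.ext
        · simp only [SemidirectProduct.mul_left, t, par, if_false, map_one]
          rfl
        · simp [RW, hb, t, par]
    | true =>
      refine ⟨s * invTrS (gS z), ?_, ?_⟩
      · rw [Matrix.SpecialLinearGroup.coe_mul, hs, invTr_val hz]
        simp [RW, hb]
      · apply SemidirectProduct.ext
        · simp only [SemidirectProduct.mul_left, t, par, if_true]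
          rw [mkP_mul]
          congr 1
        · simp only [SemidirectProduct.mul_right, t, par, if_true]
          simp only [RW, hb, Bool.not_true, if_false, mul_one]
          exact (by decide : (Multiplicative.ofAdd (1 : ZMod 2) * Multiplicative.ofAdd 1 : C2) = 1)

/-- The statement that a matrix is a scalar multiple. -/
def scal (X Y : M3) : Prop := X = Y ∨ X = (2 : ZMod 7) • Y ∨ X = (4 : ZMod 7) • Y

instance (X Y : M3) : Decidable (scal X Y) := by
  unfold scal
  infer_instance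

theorem mkP_scal {s u : SL3} (h : scal (s : M3) (u : M3)) : mkP s = mkP u := by
  rw [eq_comm, mkP_eq_iff]
  rcases h with h | h | h
  · exact ⟨1, by rw [h, one_smul]⟩
  · exact ⟨2, h⟩
  · exact ⟨4, h⟩

theorem relChk : ∀ l ∈ rels', (RW l).2 = false ∧ scal (RW l).1 1 := by decide +kernel

theorem t_rel : ∀ l ∈ rels', prodA t l = 1 := by
  intro l hl
  obtain ⟨s, hs, hp⟩ := prodA_t l (hk l hl)
  obtain ⟨h1, h2⟩ := relChk l hl
  rw [hp, h1]
  apply SemidirectProduct.ext
  · change mkP s = mkP 1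
    apply mkP_scal
    rw [hs]
    exact h2
  · rfl

theorem exists_psi : ∃ ψ : PresentedGroup Rp →* T, ∀ c, c < Kp.k → ψ (Kp.E Rp c) = t c := by
  refine exists_hom_of_letters hv (SubPres.hR 6 rels' hk) t ?_ t_rel
  intro c hc
  have hc' : c < 6 := hc
  apply eq_inv_of_mul_eq_one_left
  have := t_rel [c, c] (hsq c hc')
  simpa [Kp, SubPres.K] using this

/-- The word of a transvection. -/
def W (i j : Fin 3) : List Nat := tblW.getD (3 * i.val + j.val) []

theorem W_chk : ∀ i j : Fin 3, i ≠ j → (∀ z ∈ W i j, z < 6) ∧ (RW (W i j)).2 = false ∧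
    scal (RW (W i j)).1 (1 + Matrix.single i j 1) := by decide +kernel

theorem tv_mem (ψ : PresentedGroup Rp →* T) (hψ : ∀ c, c < Kp.k → ψ (Kp.E Rp c) = t c)
    {i j : Fin 3} (hij : i ≠ j) :
    SemidirectProduct.inl (mkP (Matrix.SpecialLinearGroup.transvection hij (1 : ZMod 7))) ∈ ψ.range := by
  obtain ⟨h1, h2, h3⟩ := W_chk i j hij
  obtain ⟨s, hs, hp⟩ := prodA_t (W i j) h1
  refine ⟨prodA (Kp.E Rp) (W i j), ?_⟩
  rw [hom_prodA ψ t hψ _ h1, hp, h2]
  apply SemidirectProduct.ext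
  · change mkP s = mkP _
    apply mkP_scal
    rw [hs]
    exact h3
  · rfl

theorem tv_add {i j : Fin 3} (hij : i ≠ j) (a b : ZMod 7) :
    Matrix.SpecialLinearGroup.transvection hij (a + b) =
      Matrix.SpecialLinearGroup.transvection hij a * Matrix.SpecialLinearGroup.transvection hij b := by
  apply Subtype.ext
  simp only [Matrix.SpecialLinearGroup.coe_mul, Matrix.SpecialLinearGroup.transvection_coe, mul_add,
    add_mul, mul_one, one_mul, Matrix.single_mul_single_of_ne _ _ _ _ hij.symm, add_zero, Matrix.single_add]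
  abel

theorem tv_mem' (ψ : PresentedGroup Rp →* T) (hψ : ∀ c, c < Kp.k → ψ (Kp.E Rp c) = t c)
    {i j : Fin 3} (hij : i ≠ j) (a : ZMod 7) :
    SemidirectProduct.inl (mkP (Matrix.SpecialLinearGroup.transvection hij a)) ∈ ψ.range := by
  have key : ∀ n : Nat, SemidirectProduct.inl (mkP (Matrix.SpecialLinearGroup.transvection hij
      ((n : Nat) : ZMod 7))) ∈ ψ.range := by
    intro n
    induction n with
    | zero =>
      simp only [Nat.cast_zero, Matrix.SpecialLinearGroup.transvection_coeff_zero]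
      exact one_mem _
    | succ n ih =>
      rw [Nat.cast_succ, tv_add, mkP_mul, map_mul]
      exact mul_mem ih (tv_mem ψ hψ hij)
  have h := key a.val
  rwa [ZMod.natCast_zmod_val] at h

theorem surj (ψ : PresentedGroup Rp →* T) (hψ : ∀ c, c < Kp.k → ψ (Kp.E Rp c) = t c) :
    Function.Surjective ψ := by
  have h1 : ∀ s : SL3, SemidirectProduct.inl (mkP s) ∈ ψ.range := by
    intro s
    refine Cfsg.Agent.Lib.Classical.Transvections.transvection_induction
      (fun x => SemidirectProduct.inl (mkP x) ∈ ψ.range) s ?_ ?_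
    · intro i j hij a
      exact tv_mem' ψ hψ hij a
    · intro a b ha hb
      rw [mkP_mul, map_mul]
      exact mul_mem ha hb
  have h0 : t 0 ∈ ψ.range := ⟨Kp.E Rp 0, hψ 0 (by decide)⟩
  rw [← MonoidHom.range_eq_top, eq_top_iff]
  rintro ⟨p, e⟩ -
  obtain ⟨s, rfl⟩ := mkP_surj p
  rcases mult_two_cases e with rfl | rfl
  · exact h1 s
  · have h2 := mul_mem (h1 (s * (gS 0)⁻¹)) h0
    convert h2 using 1
    apply SemidirectProduct.ext
    · simp only [SemidirectProduct.mul_left, SemidirectProduct.left_inl, SemidirectProduct.right_inl, t, map_one]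
      rw [mkP_mul, mkP_inv]
      simp
    · simp [t]

theorem card_P3 : Nat.card P3 = 1876896 := by
  have h1 := Cfsg.Agent.Lib.Classical.SLBasic.card_gl_eq_gcd_mul_card_psl (F := ZMod 7) (ι := Fin 3)
  have h2 : Nat.card (Matrix.GeneralLinearGroup (Fin 3) (ZMod 7)) = 33784128 := by
    rw [Matrix.card_GL_field, Fin.prod_univ_three]
    simp only [ZMod.card]
    norm_num
  simp only [ZMod.card, Fintype.card_fin] at h1
  rw [h2] at h1
  have h3 : Nat.gcd 3 (7 - 1) = 3 := by decide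
  rw [h3] at h1
  have h4 : 33784128 = 3 * (6 * Nat.card P3) := h1
  omega

theorem card_T : Nat.card T = 3753792 := by
  rw [Nat.card_congr SemidirectProduct.equivProd, Nat.card_prod, card_P3]
  simp [Nat.card_eq_fintype_card]

theorem equiv_T : Nonempty (PresentedGroup Rp ≃* T) := by
  obtain ⟨ψ, hψ⟩ := exists_psi
  have b := Cfsg.Agent.Lib.TC.D.ONH.Bound.bound
  have hs := surj ψ hψ
  have : Finite (PresentedGroup Rp) := Nat.finite_of_card_ne_zero b.1
  have hc : Nat.card T ≤ Nat.card (PresentedGroup Rp) := Nat.card_le_card_of_surjective ψ hs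
  rw [card_T] at hc
  have hbij := (Nat.bijective_iff_surjective_and_card ψ).2 ⟨hs, by rw [card_T]; omega⟩
  exact ⟨MulEquiv.ofBijective ψ hbij⟩

end Cfsg.Agent.Lib.TC.D.ONH.Tgt
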